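import Mathlib

/-!
# S1617, Rank: `case_one`.

`D` a conjugation-closed set of involutions on which commuting is an equivalence relation, and with
`delta_one`.  Then the products `a b` of commuting members generate a normal 2-subgroup: with `hsol` it is trivial.
-/

set_option autoImplicit false
set_option linter.unusedSectionVars false
set_option linter.unusedVariables false

namespace Cfsg.Agent.Lib.Rank3Case

open Subgroup

variable {G : Type*} [Group G]

/-- Closure of a set stable under conjugation by `g`. -/
lemma conj_mem_closure {T : Set G} {g : G} (h : ∀ t ∈ T, g * t * g⁻¹ ∈ T) {x : G} (hx : x ∈ closure T) :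
    g * x * g⁻¹ ∈ closure T := by
  induction hx using Subgroup.closure_induction with
  | mem y hy => exact Subgroup.subset_closure (h y hy)
  | one => simp
  | mul y z _ _ hy hz =>
    have : g * (y * z) * g⁻¹ = (g * y * g⁻¹) * (g * z * g⁻¹) := by group
    rw [this]; exact mul_mem hy hz
  | inv y _ hy =>
    have : g * y⁻¹ * g⁻¹ = (g * y * g⁻¹)⁻¹ := by group
    rw [this]; exact inv_mem hy

/-- An involution stabilising a generating set normalises the closure. -/
lemma mem_normalizer_closure {T : Set G} {z : G} (hz : z * z = 1) (h : ∀ t ∈ T, z * t * z⁻¹ ∈ T) :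
    z ∈ normalizer (closure T : Set G) := by
  have hzi : z⁻¹ = z := inv_eq_of_mul_eq_one_left hz
  rw [Subgroup.mem_normalizer_iff]
  intro x
  constructor
  · exact conj_mem_closure h
  · intro hx
    have := conj_mem_closure h hx
    have e : z * (z * x * z⁻¹) * z⁻¹ = x := by
      rw [hzi]
      calc z * (z * x * z) * z = (z * z) * x * (z * z) := by group
        _ = x := by rw [hz]; group
    rwa [e] at this

theorem case_one [Finite G] (hsol : ∀ N : Subgroup G, N.Normal → Group.IsSolvable ↥N → N = ⊥) {D : Set G}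
    (hinv : ∀ d ∈ D, d * d = 1) (hcl : ∀ d ∈ D, ∀ g : G, g * d * g⁻¹ ∈ D)
    (htrans : ∀ a ∈ D, ∀ b ∈ D, ∀ c ∈ D, Commute a b → Commute b c → Commute a c)
    (delta : ∀ a ∈ D, ∀ b ∈ D, Commute a b → a ≠ b → ∀ y ∈ D, ¬ Commute y a → ¬ Commute y b →
      Commute ((a * b) * y * (a * b)⁻¹) y)
    {a b : G} (ha : a ∈ D) (hb : b ∈ D) (hab : Commute a b) (hne : a ≠ b) : False := by
  classical
  haveI : Fact (Nat.Prime 2) := ⟨Nat.prime_two⟩
  -- the generating set of `K`
  set Z : Set G := {z | ∃ c ∈ D, ∃ e ∈ D, Commute c e ∧ z = c * e} with hZ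
  have hzinv : ∀ z ∈ Z, z * z = 1 := by
    rintro z ⟨c, hc, e, he, hce, rfl⟩
    calc c * e * (c * e) = c * (e * c) * e := by group
      _ = c * (c * e) * e := by rw [hce.eq.symm]
      _ = (c * c) * (e * e) := by group
      _ = 1 := by rw [hinv c hc, hinv e he, one_mul]
  -- every `z ∈ Z` fixes each block
  have hfix : ∀ z ∈ Z, ∀ y ∈ D, Commute (z * y * z⁻¹) y := by
    rintro z ⟨c, hc, e, he, hce, rfl⟩ y hy
    by_cases hce' : c = e
    · subst hce'
      rw [hinv c hc]
      simp
    by_cases hyc : Commute y c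
    · have hye : Commute y e := htrans y hy c hc e he hyc hce
      have : Commute y (c * e) := hyc.mul_right hye
      have e1 : c * e * y * (c * e)⁻¹ = y := by
        rw [this.symm.eq]; group
      rw [e1]
    · have hye : ¬ Commute y e := by
        intro h
        exact hyc (htrans y hy e he c hc h hce.symm)
      exact delta c hc e he hce hce' y hy hyc hye
  -- the sets `S u`
  set S : G → Set G := fun u => {z | ∃ c ∈ D, ∃ e ∈ D, Commute u c ∧ Commute u e ∧ z = c * e} with hS
  have hSZ : ∀ u ∈ D, S u ⊆ Z := by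
    rintro u hu z ⟨c, hc, e, he, huc, hue, rfl⟩
    exact ⟨c, hc, e, he, htrans c hc u hu e he huc.symm hue, rfl⟩
  -- `Z` stabilises `S u`
  have hZS : ∀ z ∈ Z, ∀ u ∈ D, ∀ t ∈ S u, z * t * z⁻¹ ∈ S u := by
    rintro z hz u hu t ⟨c, hc, e, he, huc, hue, rfl⟩
    refine ⟨z * c * z⁻¹, hcl c hc z, z * e * z⁻¹, hcl e he z, ?_, ?_, by group⟩
    · exact htrans u hu c hc _ (hcl c hc z) huc (hfix z hz c hc).symm
    · exact htrans u hu e he _ (hcl e he z) hue (hfix z hz e he).symm
  -- `K`
  set K : Subgroup G := closure Z with hK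
  have hKn : ∀ u ∈ D, K ≤ normalizer (closure (S u) : Set G) := by
    intro u hu
    rw [hK, closure_le]
    intro z hz
    exact mem_normalizer_closure (hzinv z hz) (hZS z hz u hu)
  -- `closure (S u)` has exponent 2
  have hSexp : ∀ u ∈ D, IsPGroup 2 (closure (S u)) := by
    intro u hu
    set B : Set G := {c | c ∈ D ∧ Commute u c} with hB
    have hBc : ∀ x ∈ B, ∀ y ∈ B, x * y = y * x := by
      rintro x ⟨hx, hux⟩ y ⟨hy, huy⟩
      exact (htrans x hx u hu y hy hux.symm huy).eq
    have hcomm : ∀ g ∈ closure B, ∀ h ∈ closure B, g * h = h * g := by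
      letI := Subgroup.closureCommGroupOfComm (k := B) hBc
      intro g hg h hh
      have := mul_comm (⟨g, hg⟩ : closure B) ⟨h, hh⟩
      exact congrArg Subtype.val this
    have hexp : ∀ g ∈ closure B, g * g = 1 := by
      intro g hg
      induction hg using Subgroup.closure_induction with
      | mem y hy => exact hinv y hy.1
      | one => simp
      | mul x y hx hy h1 h2 =>
        calc x * y * (x * y) = x * (y * x) * y := by group
          _ = x * (x * y) * y := by rw [hcomm y hy x hx]
          _ = (x * x) * (y * y) := by group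
          _ = 1 := by rw [h1, h2, one_mul]
      | inv y _ h1 =>
        have : y⁻¹ * y⁻¹ = (y * y)⁻¹ := by group
        rw [this, h1, inv_one]
    have hle : closure (S u) ≤ closure B := by
      rw [closure_le]
      rintro z ⟨c, hc, e, he, huc, hue, rfl⟩
      exact mul_mem (Subgroup.subset_closure ⟨hc, huc⟩) (Subgroup.subset_closure ⟨he, hue⟩)
    intro g
    refine ⟨1, Subtype.ext ?_⟩
    show (g : G) ^ (2 ^ 1) = 1
    rw [pow_one, sq]
    exact hexp g (hle g.2)
  -- all of `K` is a 2-group
  have hSK : ∀ u ∈ D, closure (S u) ≤ K := fun u hu => closure_mono (hSZ u hu)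
  have hfin : ∀ s : Finset G, (∀ u ∈ s, u ∈ D) → IsPGroup 2 (closure (⋃ u ∈ (s : Set G), S u)) ∧
      K ≤ normalizer (closure (⋃ u ∈ (s : Set G), S u) : Set G) := by
    intro s
    induction s using Finset.induction_on with
    | empty =>
      intro _
      have e0 : (⋃ u ∈ ((∅ : Finset G) : Set G), S u) = ∅ := by simp
      rw [e0, Subgroup.closure_empty]
      refine ⟨IsPGroup.of_bot, ?_⟩
      intro g _
      rw [Subgroup.mem_normalizer_iff]
      intro x
      simp
    | insert u s hu ih =>
      intro hs
      obtain ⟨h1, h2⟩ := ih (fun v hv => hs v (Finset.mem_insert_of_mem hv))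
      have huD := hs u (Finset.mem_insert_self _ _)
      have e : (⋃ v ∈ ((insert u s : Finset G) : Set G), S v) = S u ∪ ⋃ v ∈ (s : Set G), S v := by
        ext w
        simp only [Finset.coe_insert, Set.mem_insert_iff, Set.iUnion_iUnion_eq_or_left, Set.mem_union,
          Set.mem_iUnion]
      rw [e, Subgroup.closure_union]
      constructor
      · exact IsPGroup.to_sup_of_normal_right' (hSexp u huD) h1 ((hSK u huD).trans h2)
      · rw [hK, closure_le]
        intro z hz
        rw [← Subgroup.closure_union]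
        refine mem_normalizer_closure (hzinv z hz) ?_
        rintro t (ht | ht)
        · exact Or.inl (hZS z hz u huD t ht)
        · simp only [Set.mem_iUnion] at ht
          obtain ⟨v, hv, ht⟩ := ht
          have hv' : v ∈ s := hv
          refine Or.inr ?_
          simp only [Set.mem_iUnion]
          exact ⟨v, hv, hZS z hz v (hs v (Finset.mem_insert_of_mem hv')) t ht⟩
  have hDfin : D.Finite := Set.toFinite D
  have hKp : IsPGroup 2 K := by
    obtain ⟨h1, _⟩ := hfin hDfin.toFinset (fun u hu => by simpa using hu)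
    have e : K = closure (⋃ u ∈ ((hDfin.toFinset : Finset G) : Set G), S u) := by
      apply le_antisymm
      · rw [hK, closure_le]
        rintro z ⟨c, hc, e, he, hce, rfl⟩
        apply Subgroup.subset_closure
        simp only [Set.mem_iUnion]
        refine ⟨c, by simpa using hc, c, hc, e, he, Commute.refl c, hce, rfl⟩
      · rw [closure_le]
        intro z hz
        simp only [Set.mem_iUnion] at hz
        obtain ⟨u, hu, hz⟩ := hz
        exact Subgroup.subset_closure (hSZ u (by simpa using hu) hz)
    rw [e]; exact h1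
  -- `K` is normal
  have hKnorm : K.Normal := by
    refine ⟨fun x hx g => ?_⟩
    refine conj_mem_closure ?_ hx
    rintro z ⟨c, hc, e, he, hce, rfl⟩
    refine ⟨g * c * g⁻¹, hcl c hc g, g * e * g⁻¹, hcl e he g, ?_, by group⟩
    show g * c * g⁻¹ * (g * e * g⁻¹) = g * e * g⁻¹ * (g * c * g⁻¹)
    have e1 : ∀ x y : G, (g * x * g⁻¹) * (g * y * g⁻¹) = g * (x * y) * g⁻¹ := by intro x y; group
    rw [e1, e1, hce.eq]
  have hnil : Group.IsNilpotent ↥K := hKp.isNilpotent
  have hbot := hsol K hKnorm inferInstance
  have hmem : a * b ∈ K := Subgroup.subset_closure ⟨a, ha, b, hb, hab, rfl⟩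
  rw [hbot, Subgroup.mem_bot] at hmem
  apply hne
  have hbi : b⁻¹ = b := inv_eq_of_mul_eq_one_left (hinv b hb)
  rw [← hbi]
  exact mul_eq_one_iff_eq_inv.mp hmem

end Cfsg.Agent.Lib.Rank3Case
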