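import Mathlib

/-!
# S1617, Rank: the abstract `case_two`.

`D` a conjugation-closed set of involutions, any two commuting or with product of order `p ≥ 5` prime.
Lemma A and `delta_one` as hypotheses.  If `x ⊥ t`, `x ≠ t`, `y` commutes with neither, `d ⊥ x`, `d` not `⊥ t`,
then `False`.
-/

set_option autoImplicit false

namespace Cfsg.Agent.Lib.Rank3Case

variable {G : Type*} [Group G]

/-- An element commuting with a power `r ^ j`, `r ^ p = 1`, `p` prime not dividing `j`, commutes with `r`. -/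
theorem comm_of_pow {p : ℕ} (hp : p.Prime) {r a : G} (hr : r ^ p = 1) {j : ℕ} (hj : ¬ p ∣ j)
    (h : Commute a (r ^ j)) : Commute a r := by
  have hco : Nat.Coprime j p := ((Nat.Prime.coprime_iff_not_dvd hp).2 hj).symm
  obtain ⟨k, -, hk⟩ := Nat.exists_mul_mod_eq_one_of_coprime hco hp.one_lt
  have h1 : r = (r ^ j) ^ k := by
    rw [← pow_mul, pow_eq_pow_mod _ hr, hk, pow_one]
  rw [h1]
  exact h.pow_right k

theorem case_two_core {p : ℕ} (hp : p.Prime) (hp5 : 5 ≤ p) {D : Set G}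
    (hinv : ∀ d ∈ D, d * d = 1) (hcl : ∀ d ∈ D, ∀ g : G, g * d * g⁻¹ ∈ D)
    (hord : ∀ a ∈ D, ∀ b ∈ D, Commute a b ∨ orderOf (a * b) = p)
    (lemmaA : ∀ a ∈ D, ∀ b ∈ D, Commute a b → a ≠ b → ∀ d ∈ D, Commute d (a * b) → Commute d a ∧ Commute d b)
    (delta : ∀ a ∈ D, ∀ b ∈ D, Commute a b → a ≠ b → ∀ y ∈ D, ¬ Commute y a → ¬ Commute y b →
      Commute ((a * b) * y * (a * b)⁻¹) y)
    {x t y d : G} (hx : x ∈ D) (ht : t ∈ D) (hy : y ∈ D) (hd : d ∈ D)
    (hxt : Commute x t) (hne : x ≠ t) (hyx : ¬ Commute y x) (hyt : ¬ Commute y t)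
    (hdx : Commute d x) (hdt : ¬ Commute d t) : False := by
  have hxx := hinv x hx
  have htt := hinv t ht
  have hyy := hinv y hy
  have hdd := hinv d hd
  have hxi : x⁻¹ = x := inv_eq_of_mul_eq_one_left hxx
  have hti : t⁻¹ = t := inv_eq_of_mul_eq_one_left htt
  have hyi : y⁻¹ = y := inv_eq_of_mul_eq_one_left hyy
  have hdi : d⁻¹ = d := inv_eq_of_mul_eq_one_left hdd
  obtain ⟨r, hrdef⟩ : ∃ r, r = y * x := ⟨_, rfl⟩
  obtain ⟨z, hzdef⟩ : ∃ z, z = x * t := ⟨_, rfl⟩
  have hordr : orderOf r = p := by rw [hrdef]; exact (hord y hy x hx).resolve_left hyx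
  have hr : r ^ p = 1 := by rw [← hordr]; exact pow_orderOf_eq_one r
  have hyr : y = r * x := by rw [hrdef, mul_assoc, hxx, mul_one]
  have hxr : x * r * x⁻¹ = r⁻¹ := by
    rw [hrdef, mul_inv_rev, hxi, hyi]; simp only [mul_assoc, hxx, mul_one]
  have hxrk : ∀ k : ℕ, x * r ^ k = (r ^ k)⁻¹ * x := by
    intro k
    have h1 : x * r ^ k * x⁻¹ = (r⁻¹) ^ k := by rw [← conj_pow, hxr]
    rw [inv_pow] at h1
    rw [← h1]; group
  have hxrki : ∀ k : ℕ, x * (r ^ k)⁻¹ = r ^ k * x := by
    intro k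
    have h1 := hxrk k
    have h2 : r ^ k * (x * r ^ k) = x := by rw [h1, mul_inv_cancel_left]
    calc x * (r ^ k)⁻¹ = (r ^ k * (x * r ^ k)) * (r ^ k)⁻¹ := by rw [h2]
      _ = r ^ k * x := by group
  have hpodd : Odd p := hp.odd_of_ne_two (by omega)
  -- the line
  have hline : ∀ j : ℕ, r ^ j * x ∈ D := by
    intro j
    obtain ⟨m, hm⟩ := hpodd
    have h1 : r ^ (j * (m + 1)) * x * (r ^ (j * (m + 1)))⁻¹ = r ^ j * x := by
      rw [mul_assoc, hxrki, ← mul_assoc, ← pow_add]
      have : j * (m + 1) + j * (m + 1) = p * j + j := by rw [hm]; ring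
      rw [this, pow_add, pow_mul, hr, one_pow, one_mul]
    rw [← h1]
    exact hcl x hx _
  have hzz : z * z = 1 := by
    rw [hzdef]
    calc x * t * (x * t) = x * (t * x) * t := by group
      _ = x * (x * t) * t := by rw [hxt.symm.eq]
      _ = 1 := by
        rw [← mul_assoc, hxx, one_mul, htt]
  have hzi : z⁻¹ = z := inv_eq_of_mul_eq_one_left hzz
  have hz1 : z ≠ 1 := by
    intro h
    apply hne
    rw [hzdef] at h
    have : x = t⁻¹ := eq_inv_of_mul_eq_one_left h
    rw [this, hti]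
  have hxz : Commute x z := by
    rw [hzdef]; exact (Commute.refl x).mul_right hxt
  have hzt : t = x * z := by rw [hzdef, ← mul_assoc, hxx, one_mul]
  have hnp : ∀ j : ℕ, r ^ (2 * j) = 1 → p ∣ j := by
    intro j h
    have h1 : p ∣ 2 * j := by rw [← hordr]; exact orderOf_dvd_of_pow_eq_one h
    exact (Nat.Coprime.dvd_mul_left (by
      rw [Nat.coprime_primes hp Nat.prime_two]; omega)).1 h1
  -- commuting of `z` with its `r`-conjugates
  have hzJ : ∀ j : ℕ, Commute z (r ^ j * z * (r ^ j)⁻¹) := by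
    intro j
    by_cases hj : p ∣ j
    · obtain ⟨k, rfl⟩ := hj
      rw [pow_mul, hr, one_pow]
      simp only [one_mul, inv_one, mul_one]
      exact Commute.refl z
    · have hu := hline j
      have huu := hinv _ hu
      have hux : ¬ Commute (r ^ j * x) x := by
        intro hc
        apply hj
        apply hnp
        have h1 : r ^ j * x * x = x * (r ^ j * x) := hc.eq
        rw [mul_assoc, hxx, mul_one, ← mul_assoc, hxrk, mul_assoc, hxx, mul_one] at h1
        have : r ^ (2 * j) = r ^ j * r ^ j := by rw [two_mul, pow_add]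
        rw [this]
        nth_rewrite 1 [h1]
        simp
      have hut : ¬ Commute (r ^ j * x) t := by
        intro hc
        have h1 : Commute (r ^ j * x * x) t := hc.mul_left hxt
        rw [mul_assoc, hxx, mul_one] at h1
        have h2 : Commute t r := comm_of_pow hp hr hj h1.symm
        apply hyt
        rw [hyr]
        exact h2.symm.mul_left hxt.symm.symm
      have h := delta x hx t ht hxt hne _ hu hux hut
      rw [← hzdef, hzi] at h
      have h1 : (r ^ j * x) * z * (r ^ j * x) = r ^ j * z * (r ^ j)⁻¹ := by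
        have : r ^ j * x * z * (r ^ j * x) = r ^ j * (x * z) * (r ^ j * x) := by group
        rw [this, hxz.eq, ← hxrki]
        calc r ^ j * (z * x) * (x * (r ^ j)⁻¹) = r ^ j * z * (x * x) * (r ^ j)⁻¹ := by group
          _ = _ := by rw [hxx, mul_one]
      rw [← h1]
      show z * ((r ^ j * x) * z * (r ^ j * x)) = ((r ^ j * x) * z * (r ^ j * x)) * z
      have h2 := h.eq
      calc z * ((r ^ j * x) * z * (r ^ j * x)) = z * (r ^ j * x) * z * (r ^ j * x) := by group
        _ = (r ^ j * x) * (z * (r ^ j * x) * z) := h2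
        _ = _ := by group
  -- (i)
  have hty : orderOf (t * y) = p := by
    refine (hord t ht y hy).resolve_left ?_
    intro hc; exact hyt hc.symm
  have hxzc : x * z * x⁻¹ = z := by rw [hxz.eq, mul_assoc, mul_inv_cancel, mul_one]
  have hnr : ¬ Commute r z := by
    intro hc
    have h1 : (t * y) ^ p = 1 := by rw [← hty]; exact pow_orderOf_eq_one _
    have h2 : t * y = x * (z * r) * x⁻¹ := by
      rw [hxi, hzt, hyr]; simp only [mul_assoc]
    rw [h2, conj_pow, hc.symm.mul_pow, hr, mul_one] at h1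
    obtain ⟨m, hm⟩ := hpodd
    have h3 : z ^ p = z := by
      rw [hm, pow_succ, pow_mul, pow_two, hzz, one_pow, one_mul]
    rw [h3, hxzc] at h1
    exact hz1 h1
  have hnr2 : ¬ Commute (r ^ 2) z := fun h => hnr (comm_of_pow hp hr (j := 2) (by
    intro hd; have := Nat.le_of_dvd (by norm_num) hd; omega) h.symm).symm
  have hnr3 : ¬ Commute (r ^ 3) z := fun h => hnr (comm_of_pow hp hr (j := 3) (by
    intro hd; have := Nat.le_of_dvd (by norm_num) hd; omega) h.symm).symm
  have hconj : ∀ g a b : G, Commute a b → Commute (g * a * g⁻¹) (g * b * g⁻¹) := by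
    intro g a b h
    show g * a * g⁻¹ * (g * b * g⁻¹) = g * b * g⁻¹ * (g * a * g⁻¹)
    have h1 : g * a * g⁻¹ * (g * b * g⁻¹) = g * (a * b) * g⁻¹ := by group
    have h2 : g * b * g⁻¹ * (g * a * g⁻¹) = g * (b * a) * g⁻¹ := by group
    rw [h1, h2, h.eq]
  have hinvc : ∀ g : G, (g * z * g⁻¹) * (g * z * g⁻¹) = 1 := by
    intro g
    have h1 : g * z * g⁻¹ * (g * z * g⁻¹) = g * (z * z) * g⁻¹ := by group
    rw [h1, hzz]; simp
  -- names
  obtain ⟨z₁, hz₁⟩ : ∃ a, a = r * z * r⁻¹ := ⟨_, rfl⟩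
  obtain ⟨zm, hzm⟩ : ∃ a, a = r⁻¹ * z * r := ⟨_, rfl⟩
  obtain ⟨z₂, hz₂⟩ : ∃ a, a = r ^ 2 * z * (r ^ 2)⁻¹ := ⟨_, rfl⟩
  have hzz₁ : Commute z z₁ := by
    have := hzJ 1; rw [pow_one] at this; rw [hz₁]; exact this
  have hzz₂ : Commute z z₂ := by rw [hz₂]; exact hzJ 2
  have hzzm : Commute z zm := by
    have h1 := hconj r⁻¹ _ _ hzz₁
    have h2 : r⁻¹ * z₁ * r⁻¹⁻¹ = z := by rw [hz₁]; group
    have h3 : r⁻¹ * z * r⁻¹⁻¹ = zm := by rw [hzm]; group
    rw [h2, h3] at h1
    exact h1.symm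
  have hz₁zm : Commute z₁ zm := by
    have h1 := hconj r⁻¹ _ _ hzz₂
    have h2 : r⁻¹ * z₂ * r⁻¹⁻¹ = z₁ := by rw [hz₂, hz₁]; group
    have h3 : r⁻¹ * z * r⁻¹⁻¹ = zm := by rw [hzm]; group
    rw [h2, h3] at h1
    exact h1.symm
  have hz₁z₁ : z₁ * z₁ = 1 := by rw [hz₁]; exact hinvc r
  have hz₁i : z₁⁻¹ = z₁ := inv_eq_of_mul_eq_one_left hz₁z₁
  have hxz₁ : x * z₁ * x⁻¹ = zm := by
    have h1 : x * (r * z * r⁻¹) * x⁻¹ = (x * r * x⁻¹) * (x * z * x⁻¹) * (x * r * x⁻¹)⁻¹ := by group
    rw [hz₁, h1, hxr, hxzc, hzm]; simp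
  have hxzm : x * zm * x⁻¹ = z₁ := by
    rw [← hxz₁, hxi]
    calc x * (x * z₁ * x) * x = (x * x) * z₁ * (x * x) := by group
      _ = z₁ := by rw [hxx]; simp
  obtain ⟨w, hw⟩ : ∃ a, a = zm * z₁ := ⟨_, rfl⟩
  have hzw : Commute z w := by rw [hw]; exact hzzm.mul_right hzz₁
  have hxw : Commute x w := by
    have h1 : x * w * x⁻¹ = w := by
      have h2 : x * (zm * z₁) * x⁻¹ = (x * zm * x⁻¹) * (x * z₁ * x⁻¹) := by group
      rw [hw, h2, hxzm, hxz₁]; exact hz₁zm.eq
    show x * w = w * x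
    rw [← h1]; nth_rewrite 2 [h1]; rw [h1]
    calc x * w = x * w * x⁻¹ * x := by group
      _ = w * x := by rw [h1]
  have htw : Commute t w := by rw [hzt]; exact hxw.mul_left hzw
  -- `c`, `e`
  obtain ⟨c, hcdef⟩ : ∃ a, a = z₁ * x * z₁⁻¹ := ⟨_, rfl⟩
  obtain ⟨e, hedef⟩ : ∃ a, a = z₁ * t * z₁⁻¹ := ⟨_, rfl⟩
  have hcD : c ∈ D := by rw [hcdef]; exact hcl x hx _
  have heD : e ∈ D := by rw [hedef]; exact hcl t ht _
  have hc : c = x * w := by
    rw [hcdef, hw, ← hxz₁, hz₁i, hxi]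
    calc z₁ * x * z₁ = 1 * (z₁ * x * z₁) := by rw [one_mul]
      _ = (x * x) * (z₁ * x * z₁) := by rw [hxx]
      _ = x * (x * z₁ * x * z₁) := by group
      _ = x * (x * z₁ * x * z₁) := rfl
  have he : e = t * w := by
    have h1 : e = c * z := by
      rw [hedef, hcdef, hz₁i, hzt]
      calc z₁ * (x * z) * z₁ = z₁ * x * (z * z₁) := by group
        _ = z₁ * x * (z₁ * z) := by rw [hzz₁.eq]
        _ = z₁ * x * z₁ * z := by group
    rw [h1, hc, hzt]
    calc x * w * z = x * (w * z) := by group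
      _ = x * (z * w) := by rw [hzw.eq]
      _ = x * z * w := by group
  have htc : Commute t c := by rw [hc]; exact hxt.symm.mul_right htw
  have hte : Commute t e := by rw [he]; exact (Commute.refl t).mul_right htw
  have hxe : Commute x e := by rw [he]; exact hxt.mul_right hxw
  have htnee : t ≠ e := by
    intro h
    have hw1 : w = 1 := by
      have h1 : t * 1 = t * w := by rw [mul_one, ← he]; exact h
      exact (mul_left_cancel h1).symm
    have h2 : zm = z₁ := by
      have h3 : zm * z₁ = 1 := by rw [← hw]; exact hw1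
      have h4 : zm = z₁⁻¹ := eq_inv_of_mul_eq_one_left h3
      rw [h4, hz₁i]
    apply hnr2
    show r ^ 2 * z = z * r ^ 2
    have h5 : r⁻¹ * z * r = r * z * r⁻¹ := by rw [← hzm, ← hz₁]; exact h2
    calc r ^ 2 * z = r * (r * z * r⁻¹) * r := by rw [sq]; group
      _ = r * (r⁻¹ * z * r) * r := by rw [h5]
      _ = z * r ^ 2 := by rw [sq]; group
  have htnec : t ≠ c := by
    intro h
    have hA : z = w := by
      have h1 : x * z = x * w := by rw [← hzt, ← hc]; exact h
      exact mul_left_cancel h1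
    have hB : z₁ = z * z₂ := by
      calc z₁ = r * z * r⁻¹ := hz₁
        _ = r * w * r⁻¹ := by rw [← hA]
        _ = z * z₂ := by rw [hw, hzm, hz₁, hz₂]; simp only [pow_two, mul_inv_rev]; group
    have hB' : z₂ = z * z₁ := by
      rw [hB, ← mul_assoc, hzz, one_mul]
    have hC : r ^ 3 * z * (r ^ 3)⁻¹ = z := by
      calc r ^ 3 * z * (r ^ 3)⁻¹ = r * z₂ * r⁻¹ := by rw [hz₂]; group
        _ = r * (z * z₁) * r⁻¹ := by rw [← hB']
        _ = z₁ * (r * z₁ * r⁻¹) := by rw [hz₁]; group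
        _ = z₁ * z₂ := by
          congr 1; rw [hz₁, hz₂]; simp only [pow_two, mul_inv_rev]; group
        _ = z₁ * (z * z₁) := by rw [hB']
        _ = z₁ * (z₁ * z) := by rw [hzz₁.eq]
        _ = z := by rw [← mul_assoc, hz₁z₁, one_mul]
    apply hnr3
    show r ^ 3 * z = z * r ^ 3
    calc r ^ 3 * z = r ^ 3 * z * (r ^ 3)⁻¹ * r ^ 3 := by group
      _ = z * r ^ 3 := by rw [hC]
  have hdc : ¬ Commute d c := by
    intro h
    have h1 : Commute d (x * c) := hdx.mul_right h
    have h2 : x * c = t * e := by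
      rw [hc, he, ← mul_assoc, ← mul_assoc, hxx, htt]
    rw [h2] at h1
    exact hdt (lemmaA t ht e heD hte htnee d hd h1).1
  have hde : ¬ Commute d e := by
    intro h
    have h1 : Commute d (x * e) := hdx.mul_right h
    have h2 : x * e = t * c := by
      rw [hc, he, ← mul_assoc, ← mul_assoc, hxt.eq]
    rw [h2] at h1
    exact hdt (lemmaA t ht c hcD htc htnec d hd h1).1
  have hfin := delta t ht c hcD htc htnec d hd hdt hdc
  have hee := hinv e heD
  have hei : e⁻¹ = e := inv_eq_of_mul_eq_one_left hee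
  have h5 : (t * c) * d * (t * c)⁻¹ = e * d * e := by
    have h2 : t * c = e * x := by
      rw [hc, he, hxw.eq, mul_assoc]
    have h3 : x * d * x⁻¹ = d := by rw [hdx.symm.eq, mul_assoc, mul_inv_cancel, mul_one]
    rw [h2]
    calc e * x * d * (e * x)⁻¹ = e * (x * d * x⁻¹) * e⁻¹ := by group
      _ = e * d * e := by rw [h3, hei]
  rw [h5] at hfin
  have hed : orderOf (e * d) = p := by
    refine (hord e heD d hd).resolve_left ?_
    intro h; exact hde h.symm
  have h6 : (e * d) ^ 4 = 1 := by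
    have h7 : e * d * e * d = d * e * d * e := by
      have := hfin.eq
      calc e * d * e * d = d * (e * d * e) := this
        _ = d * e * d * e := by group
    calc (e * d) ^ 4 = (e * d * e * d) * (e * d * e * d) := by
          simp only [pow_succ, pow_zero, one_mul, mul_assoc]
      _ = (d * e * d * e) * (e * d * e * d) := by rw [← h7]
      _ = d * e * d * (e * e) * d * e * d := by group
      _ = d * e * (d * d) * e * d := by
        rw [hee]; simp only [mul_one, mul_assoc]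
      _ = 1 := by
        rw [hdd]; simp only [mul_one, mul_assoc]
        rw [← mul_assoc e e d, hee, one_mul, hdd]
  have h8 : p ∣ 4 := by rw [← hed]; exact orderOf_dvd_of_pow_eq_one h6
  have := Nat.le_of_dvd (by norm_num) h8
  omega

/-- `exists_y`: if `x ⊥ t`, `x ≠ t`, some `y ∈ D` commutes with neither. -/
theorem exists_y_core {D : Set G}
    (hinv : ∀ d ∈ D, d * d = 1) (hcl : ∀ d ∈ D, ∀ g : G, g * d * g⁻¹ ∈ D)
    (hgen : Subgroup.closure D = ⊤) (hclass : ∀ a ∈ D, ∀ b ∈ D, ∃ g : G, g * a * g⁻¹ = b)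
    (htrans : ∀ u ∈ D, ∀ a ∈ D, ∀ b ∈ D, a ≠ u → Commute a u → b ≠ u → Commute b u →
      ∃ g : G, Commute g u ∧ g * a * g⁻¹ = b)
    {x t : G} (hx : x ∈ D) (ht : t ∈ D) (hxt : Commute x t) (hne : x ≠ t) :
    ∃ y ∈ D, ¬ Commute y x ∧ ¬ Commute y t := by
  by_contra hcon
  push Not at hcon
  have hconj : ∀ g a b : G, Commute a b → Commute (g * a * g⁻¹) (g * b * g⁻¹) := by
    intro g a b h
    show g * a * g⁻¹ * (g * b * g⁻¹) = g * b * g⁻¹ * (g * a * g⁻¹)
    have h1 : g * a * g⁻¹ * (g * b * g⁻¹) = g * (a * b) * g⁻¹ := by group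
    have h2 : g * b * g⁻¹ * (g * a * g⁻¹) = g * (b * a) * g⁻¹ := by group
    rw [h1, h2, h.eq]
  -- the transported statement
  have P : ∀ u ∈ D, ∀ a ∈ D, a ≠ u → Commute a u → ∀ y ∈ D, ¬ Commute y u → Commute y a := by
    intro u hu a ha hau hcau y hy hyu
    obtain ⟨g, hg⟩ := hclass x hx u hu
    have ht' : g * t * g⁻¹ ∈ D := hcl t ht g
    have hne' : g * t * g⁻¹ ≠ u := by
      rw [← hg]; intro h
      apply hne
      have : g * t * g⁻¹ = g * x * g⁻¹ := h
      exact (mul_left_cancel (mul_right_cancel this)).symm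
    have hc' : Commute (g * t * g⁻¹) u := by rw [← hg]; exact hconj g _ _ hxt.symm
    obtain ⟨h, hhu, hh⟩ := htrans u hu _ ht' a ha hne' hc' hau hcau
    have hk1 : (h * g) * x * (h * g)⁻¹ = u := by
      have : (h * g) * x * (h * g)⁻¹ = h * (g * x * g⁻¹) * h⁻¹ := by group
      rw [this, hg, hhu.eq, mul_assoc, mul_inv_cancel, mul_one]
    have hk2 : (h * g) * t * (h * g)⁻¹ = a := by
      rw [← hh]; group
    obtain ⟨k, hk⟩ : ∃ k, k = h * g := ⟨_, rfl⟩
    rw [← hk] at hk1 hk2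
    have hy0 : k⁻¹ * y * k⁻¹⁻¹ ∈ D := hcl y hy k⁻¹
    have hy0x : ¬ Commute (k⁻¹ * y * k⁻¹⁻¹) x := by
      intro hc
      apply hyu
      have := hconj k _ _ hc
      rw [hk1] at this
      have h2 : k * (k⁻¹ * y * k⁻¹⁻¹) * k⁻¹ = y := by group
      rwa [h2] at this
    have := hcon _ hy0 hy0x
    have h3 := hconj k _ _ this
    rw [hk2] at h3
    have h2 : k * (k⁻¹ * y * k⁻¹⁻¹) * k⁻¹ = y := by group
    rwa [h2] at h3
  -- the block
  let B : Set G := {w | w ∈ D ∧ (w = x ∨ ¬ Commute w x)}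
  have hx_B : x ∈ B := ⟨hx, Or.inl rfl⟩
  have hgenB : ∀ d ∈ D, ∀ w ∈ B, d * w * d⁻¹ ∈ B := by
    intro d hd w hw
    refine ⟨hcl w hw.1 d, ?_⟩
    by_cases hdx : d ≠ x ∧ Commute d x
    · -- `d` commutes with `w`
      have hdw : Commute d w := by
        rcases hw.2 with rfl | hwx
        · exact hdx.2
        · exact (P x hx d hd hdx.1 hdx.2 w hw.1 hwx).symm
      have : d * w * d⁻¹ = w := by rw [hdw.eq, mul_assoc, mul_inv_cancel, mul_one]
      rw [this]; exact hw.2
    · -- `d ∈ B`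
      by_contra hcon2
      push Not at hcon2
      obtain ⟨h1, h2⟩ := hcon2
      -- `w' = d w d⁻¹` is commuting with `x`, so with `d`
      have hd' : Commute (d * w * d⁻¹) d := by
        by_cases hdx' : d = x
        · rw [hdx']; subst hdx'; exact h2
        · have hnd : ¬ Commute d x := fun hc => hdx ⟨hdx', hc⟩
          exact (P x hx _ (hcl w hw.1 d) h1 h2 d hd hnd).symm
      have hwd : Commute w d := by
        have := hconj d⁻¹ _ _ hd'
        have e1 : d⁻¹ * (d * w * d⁻¹) * d⁻¹⁻¹ = w := by group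
        have e2 : d⁻¹ * d * d⁻¹⁻¹ = d := by group
        rwa [e1, e2] at this
      have e3 : d * w * d⁻¹ = w := by rw [hwd.symm.eq, mul_assoc, mul_inv_cancel, mul_one]
      rw [e3] at h1 h2
      rcases hw.2 with h | h
      · exact h1 h
      · exact h h2
  have hall : ∀ g : G, ∀ w, w ∈ B ↔ g * w * g⁻¹ ∈ B := by
    intro g
    have hg : g ∈ Subgroup.closure D := by rw [hgen]; trivial
    induction hg using Subgroup.closure_induction with
    | mem d hd =>
      intro w
      constructor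
      · exact hgenB d hd w
      · intro h
        have := hgenB d hd _ h
        have hdd := hinv d hd
        have hdi : d⁻¹ = d := inv_eq_of_mul_eq_one_left hdd
        have e : d * (d * w * d⁻¹) * d⁻¹ = w := by
          rw [hdi]
          calc d * (d * w * d) * d = (d * d) * w * (d * d) := by group
            _ = w := by rw [hdd]; simp
        rwa [e] at this
    | one => intro w; simp
    | mul a b _ _ iha ihb =>
      intro w
      rw [ihb w, iha (b * w * b⁻¹)]
      have : a * (b * w * b⁻¹) * a⁻¹ = a * b * w * (a * b)⁻¹ := by group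
      rw [this]
    | inv a _ iha =>
      intro w
      rw [iha (a⁻¹ * w * a⁻¹⁻¹)]
      have : a * (a⁻¹ * w * a⁻¹⁻¹) * a⁻¹ = w := by group
      rw [this]
  obtain ⟨g, hg⟩ := hclass x hx t ht
  have := (hall g x).1 hx_B
  rw [hg] at this
  rcases this.2 with h | h
  · exact hne h.symm
  · exact h hxt.symm

end Cfsg.Agent.Lib.Rank3Case
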